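import Cfsg.Prelude.Def_Sporadic_a

/-! Stub: realises once the on-demand equation lemmas of the recursive / match-defined constants of `Def_Sporadic_a`.
Import this file before unfolding them. -/

namespace Eqns.Def_Sporadic_a

theorem t0 : True := by
  have := @Cfsg.cubeTwistFun.eq_def
  have := @Cfsg.cubeTwistFun.eq_1
  have := @Cfsg.cubeTwistFun.eq_unfold
  trivial

theorem t1 : True := by
  have := @Cfsg.projInvFun.eq_def
  have := @Cfsg.projInvFun.eq_1
  have := @Cfsg.projInvFun.eq_unfold
  trivial

theorem t2 : True := by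
  have := @Cfsg.pointBlockRel.eq_def.{0}
  have := @Cfsg.pointBlockRel.eq_1.{0}
  have := @Cfsg.pointBlockRel.eq_unfold.{0}
  trivial

theorem t3 : True := by
  have := @Cfsg.qrWord.eq_def
  have := @Cfsg.qrWord.eq_1
  have := @Cfsg.qrWord.eq_unfold
  trivial

end Eqns.Def_Sporadic_a
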